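import Mathlib
import Cfsg.Agent.Lib.Helper55.OOG.Defs

/-!
# OOG (S2413) package [CONJ]: `g ρ_{u,w} g⁻¹ = ρ_{gu,gw}`.
-/

set_option autoImplicit false
open scoped Matrix

namespace Cfsg.Agent.Lib.Helper29.OOG

open Cfsg.Agent.Lib.Helper55.OOG

universe u

theorem pkgConj : PkgConj.{u} := by
  intro m F _ u w g σ hσ v
  rw [mul_act, mul_act, hσ, Matrix.mulVec_sub, Matrix.mulVec_add, Matrix.mulVec_smul,
    Matrix.mulVec_smul, act_inv, B_inv_act, B_inv_act, Q_act]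

end Cfsg.Agent.Lib.Helper29.OOG
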