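import Mathlib
import Cfsg.Agent.Lib.Helper55.OOG.Defs

/-!
# OOG (S2413) package [TORUS]: the torus element `e_i ↦ k² e_i`, `f_i ↦ k⁻² f_i` lies in `Ω`.

`tor i k = ⁅D, P⁆` with `D = diag(k at e_i, k⁻¹ at f_i)` and `P` the swap `e_i ↔ f_i`.
-/

set_option autoImplicit false
open scoped Matrix

namespace Cfsg.Agent.Lib.Helper29.OOG

open Cfsg.Agent.Lib.Helper55.OOG

universe u

section Torus

variable {m : ℕ} {F : Type u} [Field F]

/-- The diagonal entries of the torus element. -/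
def dvec (i : Fin m) (k : F) : Unit ⊕ (Fin m ⊕ Fin m) → F :=
  fun x => if x = Sum.inr (Sum.inl i) then k else if x = Sum.inr (Sum.inr i) then k⁻¹ else 1

theorem dvec_t (i : Fin m) (k : F) : dvec i k (Sum.inl ()) = 1 := by simp [dvec]

theorem dvec_x (i j : Fin m) (k : F) :
    dvec i k (Sum.inr (Sum.inl j)) = if j = i then k else 1 := by
  unfold dvec; by_cases h : j = i <;> simp [h]

theorem dvec_y (i j : Fin m) (k : F) :
    dvec i k (Sum.inr (Sum.inr j)) = if j = i then k⁻¹ else 1 := by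
  unfold dvec; by_cases h : j = i <;> simp [h]

theorem dvec_mul_inv (i : Fin m) {k : F} (hk : k ≠ 0) (x : Unit ⊕ (Fin m ⊕ Fin m)) :
    dvec i k x * dvec i k⁻¹ x = 1 := by
  unfold dvec
  split_ifs <;> simp [hk]

theorem dvec_ne_zero (i : Fin m) {k : F} (hk : k ≠ 0) (x : Unit ⊕ (Fin m ⊕ Fin m)) :
    dvec i k x ≠ 0 := by
  unfold dvec
  split_ifs <;> simp [hk]

/-- The diagonal matrix as an element of `GL`. -/
def dGL (i : Fin m) (k : F) (hk : k ≠ 0) :
    Matrix.GeneralLinearGroup (Unit ⊕ (Fin m ⊕ Fin m)) F :=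
  ⟨Matrix.diagonal (dvec i k), Matrix.diagonal (dvec i k⁻¹),
    by
      rw [Matrix.diagonal_mul_diagonal]
      simp only [dvec_mul_inv i hk]
      exact Matrix.diagonal_one,
    by
      rw [Matrix.diagonal_mul_diagonal]
      have h : ∀ x, dvec i k⁻¹ x * dvec i k x = 1 := fun x => by
        rw [mul_comm]; exact dvec_mul_inv i hk x
      simp only [h]
      exact Matrix.diagonal_one⟩

theorem dGL_mem (i : Fin m) (k : F) (hk : k ≠ 0) : dGL i k hk ∈ Iso m F := by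
  intro u v
  show Cfsg.quadFormOdd m F (Matrix.diagonal (dvec i k) *ᵥ u) = Cfsg.quadFormOdd m F u
  unfold Cfsg.quadFormOdd
  simp only [Matrix.mulVec_diagonal, dvec_t, dvec_x, dvec_y, one_mul]
  congr 1
  apply Finset.sum_congr rfl
  intro j _
  by_cases h : j = i
  · simp only [h, if_true]
    field_simp
  · simp only [h, if_false, one_mul]

/-- The swap `e_i ↔ f_i` as an element of `GL`. -/
def sGL (i : Fin m) : Matrix.GeneralLinearGroup (Unit ⊕ (Fin m ⊕ Fin m)) F :=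
  ⟨Matrix.swap F (Sum.inr (Sum.inl i)) (Sum.inr (Sum.inr i)),
    Matrix.swap F (Sum.inr (Sum.inl i)) (Sum.inr (Sum.inr i)),
    Matrix.swap_mul_self _ _, Matrix.swap_mul_self _ _⟩

theorem sGL_mem (i : Fin m) :
    (sGL i : Matrix.GeneralLinearGroup (Unit ⊕ (Fin m ⊕ Fin m)) F) ∈ Iso m F := by
  intro u v
  show Cfsg.quadFormOdd m F
    (Matrix.swap F (Sum.inr (Sum.inl i)) (Sum.inr (Sum.inr i)) *ᵥ u) = Cfsg.quadFormOdd m F u
  rw [Matrix.swap_mulVec]
  unfold Cfsg.quadFormOdd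
  simp only [Function.comp_apply]
  have h0 : Equiv.swap (Sum.inr (Sum.inl i)) (Sum.inr (Sum.inr i)) (Sum.inl ()) =
      (Sum.inl () : Unit ⊕ (Fin m ⊕ Fin m)) :=
    Equiv.swap_apply_of_ne_of_ne (by simp) (by simp)
  rw [h0]
  congr 1
  apply Finset.sum_congr rfl
  intro j _
  by_cases h : j = i
  · subst h
    rw [Equiv.swap_apply_left, Equiv.swap_apply_right, mul_comm]
  · rw [Equiv.swap_apply_of_ne_of_ne, Equiv.swap_apply_of_ne_of_ne] <;> simp [h]

/-- The torus element `⁅D, P⁆ = diag(k², k⁻²)`. -/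
def tor (i : Fin m) (k : F) (hk : k ≠ 0) : ↥(Iso m F) :=
  (⟨dGL i k hk, dGL_mem i k hk⟩ : ↥(Iso m F)) * ⟨sGL i, sGL_mem i⟩ *
    (⟨dGL i k hk, dGL_mem i k hk⟩ : ↥(Iso m F))⁻¹ * (⟨sGL i, sGL_mem i⟩ : ↥(Iso m F))⁻¹

open scoped commutatorElement in
theorem tor_mem (i : Fin m) (k : F) (hk : k ≠ 0) :
    tor i k hk ∈ Cfsg.Omega F (Cfsg.quadFormOdd m F) := by
  have h1 : tor i k hk =
      ⁅(⟨dGL i k hk, dGL_mem i k hk⟩ : ↥(Iso m F)), (⟨sGL i, sGL_mem i⟩ : ↥(Iso m F))⁆ := by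
    rw [commutatorElement_def]
    rfl
  rw [h1]
  exact Subgroup.commutator_mem_commutator (Subgroup.mem_top _) (Subgroup.mem_top _)

theorem dvec_swap (i : Fin m) (k : F) (x : Unit ⊕ (Fin m ⊕ Fin m)) :
    dvec i k⁻¹ (Equiv.swap (Sum.inr (Sum.inl i)) (Sum.inr (Sum.inr i)) x) = dvec i k x := by
  by_cases hxa : x = Sum.inr (Sum.inl i)
  · subst hxa
    rw [Equiv.swap_apply_left]
    simp [dvec]
  · by_cases hxb : x = Sum.inr (Sum.inr i)
    · subst hxb
      rw [Equiv.swap_apply_right]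
      simp [dvec]
    · rw [Equiv.swap_apply_of_ne_of_ne hxa hxb]
      simp [dvec, hxa, hxb]

theorem tor_act (i : Fin m) (k : F) (hk : k ≠ 0) (v : Vec m F) (x : Unit ⊕ (Fin m ⊕ Fin m)) :
    (mat (tor i k hk) *ᵥ v) x = dvec i k x * dvec i k x * v x := by
  have h1 : mat (tor i k hk) =
      Matrix.diagonal (dvec i k) * Matrix.swap F (Sum.inr (Sum.inl i)) (Sum.inr (Sum.inr i)) *
        Matrix.diagonal (dvec i k⁻¹) *
        Matrix.swap F (Sum.inr (Sum.inl i)) (Sum.inr (Sum.inr i)) := rfl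
  rw [h1, ← Matrix.mulVec_mulVec, ← Matrix.mulVec_mulVec, ← Matrix.mulVec_mulVec,
    Matrix.mulVec_diagonal, Matrix.swap_mulVec, Function.comp_apply, Matrix.mulVec_diagonal,
    Matrix.swap_mulVec, Function.comp_apply, Equiv.swap_apply_self, dvec_swap]
  ring

theorem pow_act_diag (h : ↥(Iso m F)) (c : Unit ⊕ (Fin m ⊕ Fin m) → F)
    (hh : ∀ (v : Vec m F) (x : Unit ⊕ (Fin m ⊕ Fin m)), (mat h *ᵥ v) x = c x * v x) :
    ∀ (n : ℕ) (v : Vec m F) (x : Unit ⊕ (Fin m ⊕ Fin m)),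
      (mat (h ^ n) *ᵥ v) x = c x ^ n * v x := by
  intro n
  induction n with
  | zero => intro v x; rw [pow_zero, one_act, pow_zero, one_mul]
  | succ n ih => intro v x; rw [pow_succ, mul_act, ih, hh, pow_succ]; ring

end Torus

theorem pkgTorus : PkgTorus.{u} := by
  intro m F _ _ i k hk
  refine ⟨tor i k hk, ?_, ?_, ?_, ?_, ?_⟩
  · exact tor_mem i k hk
  · funext x
    rw [tor_act]
    by_cases hx : x = Sum.inr (Sum.inl i)
    · subst hx; simp [dvec]
    · simp [hx]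
  · funext x
    rw [tor_act]
    by_cases hx : x = Sum.inl ()
    · subst hx; simp [dvec]
    · simp [hx]
  · intro j hj
    funext x
    rw [tor_act]
    by_cases hx : x = Sum.inr (Sum.inl j)
    · subst hx; simp [dvec, hj]
    · simp [hx]
  · apply ext_act
    intro v
    funext x
    rw [pow_act_diag (tor i k hk) (fun x => dvec i k x * dvec i k x)
      (fun v x => tor_act i k hk v x), one_act]
    have h1 : (dvec i k x * dvec i k x) ^ (Fintype.card F - 1) = 1 :=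
      FiniteField.pow_card_sub_one_eq_one _
        (mul_ne_zero (dvec_ne_zero i hk x) (dvec_ne_zero i hk x))
    rw [h1, one_mul]

end Cfsg.Agent.Lib.Helper29.OOG
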